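import Cfsg.Agent.H883.BS.Out
import Cfsg.Agent.H621.Dg.GeoPsu

/-!
# S5733 (Boston-Shalev), the geometric subgroups of `PSU_n(q)`, `n` large

`geoD_psu` : a proper subgroup of `PSU_n(q)`, `n ≥ 800`, misses a large prime for many exponents, or it fixes a subspace, or
its preimage in `GL_n(q²)` is in the residual class.
-/

set_option autoImplicit false
set_option linter.unusedSectionVars false

namespace Cfsg.Agent.H89.BSU

open Cfsg Cfsg.Geo Cfsg.Agent.OrdDiv Cfsg.Agent.H851.Dg Cfsg.Agent.H251.GeoCard Cfsg.Agent.H251.GeoU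
open Cfsg.Agent.H883.BS
open scoped Matrix MatrixGroups

section Kill

variable {F : Type*} [Field F] [Fintype F] {n q s : ℕ}

/-- (C2), both kinds. -/
theorem kill_decomp (hF : Fintype.card F = q ^ 2) {m : ℕ} (hs : s.Prime) (hord : orderOf (-(q : ZMod s)) = m)
    (hm : Odd m) (hnm : n < 2 * m) (hsm : n < s) {t k : ℕ} {D : Fin t → Submodule F (Fin n → F)}
    (hD : IsMDecomposition k D) (h : s ∣ Nat.card (decompositionStabilizer D)) : False := by
  have hsq := not_dvd_of_ord hs hord (by omega)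
  have htk : t * k = n := by rw [H918.decomp_card hD, Fintype.card_fin]
  have ht2 := hD.two_le
  have hk := hD.pos
  rcases decomp hD hs (not_dvd_card hF hs hsq) h with h1 | h1
  · have : t ≤ t * k := Nat.le_mul_of_pos_right _ hk
    omega
  · rw [nat_card_eq hF] at h1
    have h2 := ord_le_of_div (Nat.one_le_pow _ _ (LieClassical.HermBasic.q_pos hF)) h1
    rw [ord_sq_odd hord hm] at h2
    nlinarith

/-- (C4) -/
theorem kill_tensor (hF : Fintype.card F = q ^ 2) {m : ℕ} (hs : s.Prime) (hord : orderOf (-(q : ZMod s)) = m)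
    (hm : Odd m) (hnm : n < 2 * m) {n₁ n₂ : ℕ} (e : Fin n ≃ Fin n₁ × Fin n₂) (P : GL (Fin n) F)
    (h2 : 2 ≤ n₁) (h12 : n₁ < n₂) (h : s ∣ Nat.card (tensorProductSubgroup n₁ n₂ e P)) : False := by
  have hsq := not_dvd_of_ord hs hord (by omega)
  have hcard : n = n₁ * n₂ := by
    have := Fintype.card_congr e
    simpa using this
  have h1 := tensor e P hs (not_dvd_card hF hs hsq) h
  rw [nat_card_eq hF] at h1
  have h3 := ord_le_of_div (Nat.one_le_pow _ _ (LieClassical.HermBasic.q_pos hF)) h1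
  rw [ord_sq_odd hord hm, max_eq_right h12.le] at h3
  nlinarith

/-- (C7) -/
theorem kill_wreath (hF : Fintype.card F = q ^ 2) {m : ℕ} (hs : s.Prime) (hord : orderOf (-(q : ZMod s)) = m)
    (hm : Odd m) (hnm : n < 2 * m) (hsm : n < s) {k t : ℕ} (e : Fin n ≃ (Fin t → Fin k))
    (P : GL (Fin n) F) (hk : 3 ≤ k) (ht : 2 ≤ t) (h : s ∣ Nat.card (tensorWreathSubgroup k t e P)) : False := by
  have hsq := not_dvd_of_ord hs hord (by omega)
  have hcard : n = k ^ t := by
    have := Fintype.card_congr e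
    simpa using this
  rcases wreath e P hs (not_dvd_card hF hs hsq) h with h1 | h1
  · have : t < k ^ t := Nat.lt_pow_self (by omega)
    omega
  · rw [nat_card_eq hF] at h1
    have h3 := ord_le_of_div (Nat.one_le_pow _ _ (LieClassical.HermBasic.q_pos hF)) h1
    rw [ord_sq_odd hord hm] at h3
    have h4 : k ^ 2 ≤ k ^ t := Nat.pow_le_pow_right (by omega) ht
    nlinarith

/-- (C5) -/
theorem kill_subfield (hF : Fintype.card F = q ^ 2) {p f m : ℕ} (hp : p.Prime) (hq : q = p ^ f) (hf : 1 ≤ f)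
    (hs : s.Prime) (hiff : ∀ k, s ∣ p ^ k - 1 ↔ 2 * m * f ∣ k)
    (hord : orderOf (-(q : ZMod s)) = m) (hm : Odd m) (hm2 : 2 ≤ m) (hnm : n < 2 * m) {F₀ : Subfield F} {r : ℕ}
    (hr : 2 ≤ r) (hc : Fintype.card F = Nat.card F₀ ^ r) {P : GL (Fin n) F}
    (h : s ∣ Nat.card (subfieldSubgroup F₀ P)) : False := by
  have hsq := not_dvd_of_ord hs hord (by omega)
  rcases subfield hs (not_dvd_card hF hs hsq) h with h1 | h1
  · have h2 : Div s (q ^ 2) 1 := div_one le_rfl (by rwa [← nat_card_eq hF])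
    have h3 := ord_le_of_div (Nat.one_le_pow _ _ (LieClassical.HermBasic.q_pos hF)) h2
    rw [ord_sq_odd hord hm] at h3
    omega
  · rw [Fintype.card_fin] at h1
    obtain ⟨i, hi1, hi2, hi3⟩ := h1
    rw [hF, hq, ← pow_mul] at hc
    obtain ⟨a, -, ha⟩ := (Nat.dvd_prime_pow hp).1 (show Nat.card F₀ ∣ p ^ (f * 2) by
      rw [hc]; exact dvd_pow_self _ (by omega))
    rw [ha, ← pow_mul] at hc hi3
    have har : f * 2 = a * r := Nat.pow_right_injective hp.two_le hc
    have h4 := (hiff _).1 hi3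
    have ha0 : 0 < a := by
      rcases Nat.eq_zero_or_pos a with rfl | h5
      · omega
      · exact h5
    have h5 : a * (m * r) ∣ a * i := by
      have : 2 * m * f = a * (m * r) := by
        calc 2 * m * f = m * (f * 2) := by ring
          _ = a * (m * r) := by rw [har]; ring
      rwa [this] at h4
    have h6 := Nat.le_of_dvd (by omega) (Nat.dvd_of_mul_dvd_mul_left ha0 h5)
    nlinarith

/-- (C6) -/
theorem kill_symp (hF : Fintype.card F = q ^ 2) {m : ℕ} (hs : s.Prime) (hord : orderOf (-(q : ZMod s)) = m)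
    (hm : Odd m) (hm2 : 2 ≤ m) (hn : 2 ≤ n) (hsm : n + 1 < s) {r k : ℕ} {R : Subgroup (GL (Fin n) F)}
    (hR : IsSymplecticTypeGroup r R) (habs : ActsAbsolutelyIrreducibly (matrixSet R)) (ht : H920.IsType r k R)
    (h : s ∣ Nat.card (subgroupNormalizer R)) : False := by
  have hne : Nonempty (Fin n) := ⟨⟨0, by omega⟩⟩
  have hcard := H920.card_of_type hR habs ht
  rw [Fintype.card_fin] at hcard
  have hk : 1 ≤ k := by
    by_contra hk0
    have : k = 0 := by omega
    rw [this, pow_zero] at hcard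
    omega
  have hsq := not_dvd_of_ord hs hord (by omega)
  rcases symplecticType hR habs ht hk hs h with h1 | h1 | h1
  · have h2 : r ≤ r ^ k := Nat.le_self_pow (by omega) r
    omega
  · have h2 : Div s (q ^ 2) 1 := div_one le_rfl (by rwa [← nat_card_eq hF])
    have h3 := ord_le_of_div (Nat.one_le_pow _ _ (LieClassical.HermBasic.q_pos hF)) h2
    rw [ord_sq_odd hord hm] at h3
    omega
  · omega

/-- (C3), an exponent which is not divisible by `r`. -/
theorem kill_field (hF : Fintype.card F = q ^ 2) {m : ℕ} (hs : s.Prime)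
    (hord : orderOf (-(q : ZMod s)) = m) (hm : Odd m) (hn : 2 ≤ n) (hnm : n < 2 * m) (hsm : n < s) {r : ℕ}
    (hr : r.Prime) (hrm : ¬ r ∣ m) {K : Subalgebra F (Matrix (Fin n) (Fin n) F)} (hK : IsFieldSubalgebra r K)
    (h : s ∣ Nat.card (subalgebraNormalizer K)) : False := by
  have hne : Nonempty (Fin n) := ⟨⟨0, by omega⟩⟩
  have hsq := not_dvd_of_ord hs hord (by omega)
  have hrn : r ∣ n := by
    have := H912.finrank_dvd_of_fieldSub hK
    rwa [Fintype.card_fin] at this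
  have hrn' := Nat.le_of_dvd (by omega) hrn
  obtain ⟨c, hc⟩ := hrn
  rcases extension hr hK hs (not_dvd_card hF hs hsq) h with h1 | h1
  · omega
  · rw [nat_card_eq hF, Fintype.card_fin, hc, Nat.mul_div_cancel_left _ hr.pos] at h1
    have h2 := ord_le_of_div (Nat.one_le_pow _ _ (Nat.one_le_pow _ _ (LieClassical.HermBasic.q_pos hF))) h1
    have h3 : orderOf (((q ^ 2) ^ r : ℕ) : ZMod s) = m := by
      have h4 : (((q ^ 2) ^ r : ℕ) : ZMod s) = ((q ^ 2 : ℕ) : ZMod s) ^ r := by push_cast; rfl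
      rw [h4, orderOf_pow' _ hr.ne_zero, ord_sq_odd hord hm]
      have h5 : Nat.gcd m r = 1 := by
        rw [← Nat.coprime_iff_gcd_eq_one, Nat.coprime_comm, hr.coprime_iff_not_dvd]
        exact hrm
      rw [h5, Nat.div_one]
    rw [h3] at h2
    have := hr.two_le
    nlinarith

end Kill

/-- the exponents: odd numbers `4 k + 1` or `4 k + 3`, not divisible by `r` -/
def ex (r k : ℕ) : ℕ := if r ∣ 4 * k + 1 then 4 * k + 3 else 4 * k + 1

theorem ex_odd (r k : ℕ) : Odd (ex r k) := by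
  unfold ex
  split_ifs
  · exact ⟨2 * k + 1, by ring⟩
  · exact ⟨2 * k, by ring⟩

theorem ex_inj (r : ℕ) : Function.Injective (ex r) := by
  intro a b h
  unfold ex at h
  split_ifs at h <;> omega

theorem ex_ge (r k : ℕ) : 4 * k + 1 ≤ ex r k := by
  unfold ex
  split_ifs <;> omega

theorem ex_le (r k : ℕ) : ex r k ≤ 4 * k + 3 := by
  unfold ex
  split_ifs <;> omega

theorem ex_not_dvd {r k : ℕ} (hr : 3 ≤ r) : ¬ r ∣ ex r k := by
  unfold ex
  split_ifs with h
  · intro h1
    have h2 : r ∣ 2 := by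
      have h3 : 4 * k + 3 = (4 * k + 1) + 2 := by ring
      rw [h3] at h1
      exact (Nat.dvd_add_right h).1 h1
    have := Nat.le_of_dvd (by norm_num) h2
    omega
  · exact h

/-- the set of exponents -/
def exSet (r n : ℕ) : Finset ℕ := (Finset.Ico (n / 8 + 1) (n / 4)).image (ex r)

theorem card_exSet (r : ℕ) {n : ℕ} (hn : 800 ≤ n) : n ≤ 200 * (exSet r n).card := by
  rw [exSet, Finset.card_image_of_injective _ (ex_inj r), Nat.card_Ico]
  omega

theorem mem_exSet {r n e : ℕ} (h : e ∈ exSet r n) : ∃ k, ex r k = e ∧ n / 8 + 1 ≤ k ∧ k < n / 4 := by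
  obtain ⟨k, hk, rfl⟩ := Finset.mem_image.1 h
  rw [Finset.mem_Ico] at hk
  exact ⟨k, rfl, hk.1, hk.2⟩

/-- **Geometric members of `SU_n(q)`, `n ≥ 800`, fix a subspace or miss a large prime for many exponents.** -/
theorem outD_of_class {F : Type*} [Field F] [Fintype F] {n q : ℕ} (hF : Fintype.card F = q ^ 2) (hn : 800 ≤ n)
    {M : Subgroup (GL (Fin n) F)} (hM : InUnitaryClass n F q M) :
    OutD (.psu n q) M ∨ ∃ W : Submodule F (Fin n → F), W ≠ ⊥ ∧ W ≠ ⊤ ∧ M ≤ subspaceStabilizer W := by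
  obtain ⟨p, f, hp, hf, hq, hpF⟩ := exists_prime_power hF
  -- the main argument
  have main : ∀ r : ℕ, 3 ≤ r → (∀ s m : ℕ, s.Prime → (∀ k, s ∣ p ^ k - 1 ↔ 2 * m * f ∣ k) →
      orderOf (-(q : ZMod s)) = m → Odd m → 2 ≤ m → n < 2 * m → n + 1 < s → ¬ r ∣ m → s ∣ Nat.card M → False) →
      OutD (.psu n q) M := by
    intro r hr hkill
    refine ⟨exSet r n, card_exSet r hn, fun e he => ?_⟩
    obtain ⟨k, rfl, hk1, hk2⟩ := mem_exSet he
    have h1 := ex_ge r k
    have h2 := ex_le r k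
    obtain ⟨s, hs, hiff, hs1, hord⟩ := exists_big hp hf (m := ex r k) (by omega) (ex_odd r k) (by
      rintro ⟨h3, -⟩
      omega)
    rw [← hq] at hord
    have hsbig : n + 1 < s := by
      have h3 := Nat.le_of_dvd (by have := hs.two_le; omega) hs1
      have h4 : 2 * ex r k * 1 ≤ 2 * ex r k * f := Nat.mul_le_mul_left _ hf
      omega
    exact ⟨s, ⟨hs, hord, ex_odd r k, by omega, by omega⟩,
      hkill s (ex r k) hs hiff hord (ex_odd r k) (by omega) (by omega) hsbig (ex_not_dvd hr)⟩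
  rcases hM with hM | hM | hM | hM
  · rcases hM with hM | hM | hM | hM | hM | hM | hM | hM
    · obtain ⟨W, hW0, hW, rfl⟩ := hM
      have h3 := (H950.frm_herm hF n).two_mul_finrank_le (H950.nd_top hF n) le_top (W := W) hW
      refine Or.inr ⟨W, hW0, ?_, inf_le_left⟩
      rintro rfl
      rw [finrank_top, Module.finrank_fintype_fun_eq_card, Fintype.card_fin] at h3
      omega
    · obtain ⟨W, hW0, hW, hW2, rfl⟩ := hM
      refine Or.inr ⟨W, hW0, ?_, inf_le_left⟩
      rintro rfl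
      rw [finrank_top, Module.finrank_fintype_fun_eq_card, Fintype.card_fin] at hW2
      omega
    · obtain ⟨t, k, D, hD, rfl⟩ := hM
      exact Or.inl (main 3 le_rfl fun s m hs hiff hord hm hm2 hnm hsn hrm h =>
        kill_decomp hF hs hord hm hnm (by omega) hD.decomp (dvd_left h))
    · obtain ⟨k, D, hk, hD, -, rfl⟩ := hM
      exact Or.inl (main 3 le_rfl fun s m hs hiff hord hm hm2 hnm hsn hrm h =>
        kill_decomp hF hs hord hm hnm (by omega) hD (dvd_left h))
    · obtain ⟨F₀, r, P, hr, hro, hc, -, rfl⟩ := hM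
      exact Or.inl (main 3 le_rfl fun s m hs hiff hord hm hm2 hnm hsn hrm h =>
        kill_subfield hF hp hq hf hs hiff hord hm hm2 hnm hr.two_le hc (dvd_left h))
    · obtain ⟨F₀, P, -, hc, -, rfl⟩ := hM
      exact Or.inl (main 3 le_rfl fun s m hs hiff hord hm hm2 hnm hsn hrm h =>
        kill_subfield hF hp hq hf hs hiff hord hm hm2 hnm le_rfl hc (dvd_left h))
    · obtain ⟨F₀, P, ζ, -, hc, -, -, -, -, rfl⟩ := hM
      exact Or.inl (main 3 le_rfl fun s m hs hiff hord hm hm2 hnm hsn hrm h =>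
        kill_subfield hF hp hq hf hs hiff hord hm hm2 hnm le_rfl hc (dvd_left h))
    · obtain ⟨r, R, p', e, k, hR, habs, -, -, -, hc, rfl⟩ := hM
      have ht : H920.IsType r k R := by
        rcases hc with ⟨h1, h2, -, h3⟩ | ⟨h1, -, h2, h3⟩
        · exact Or.inl ⟨h1, h2, h3⟩
        · exact Or.inr ⟨h1, h2, h3⟩
      exact Or.inl (main 3 le_rfl fun s m hs hiff hord hm hm2 hnm hsn hrm h =>
        kill_symp hF hs hord hm hm2 (by omega) hsn hR habs ht (dvd_left h))
  · obtain ⟨r, K, hr, hro, hK, -, rfl⟩ := hM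
    have hr3 : 3 ≤ r := by
      have := hr.two_le
      obtain ⟨k, hk⟩ := hro
      omega
    exact Or.inl (main r hr3 fun s m hs hiff hord hm hm2 hnm hsn hrm h =>
      kill_field hF hs hord hm (by omega) hnm (by omega) hr hrm hK (dvd_left h))
  · obtain ⟨n₁, n₂, e, P, f₁, f₂, h2, hlt, -, -, -, rfl⟩ := hM
    exact Or.inl (main 3 le_rfl fun s m hs hiff hord hm hm2 hnm hsn hrm h =>
      kill_tensor hF hs hord hm hnm e P h2 hlt (dvd_left h))
  · obtain ⟨k, t, e, P, f₁, hk, ht, -, -, -, rfl⟩ := hM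
    exact Or.inl (main 3 le_rfl fun s m hs hiff hord hm hm2 hnm hsn hrm h =>
      kill_wreath hF hs hord hm hnm (by omega) e P hk ht (dvd_left h))

/-- **BS-R2.** -/
theorem geoD_psu : ∃ N0 : ℕ, ∀ {F : Type*} [Field F] [Fintype F] {n q : ℕ}, Fintype.card F = q ^ 2 → N0 ≤ n →
    ∀ (M : Subgroup (Cfsg.PSU n F q)), M ≠ ⊤ →
    OutD (.psu n q) M ∨ (∃ W : Submodule F (Fin n → F), W ≠ ⊥ ∧ W ≠ ⊤ ∧
      Cfsg.Agent.H251.GeoU.pre M ≤ Cfsg.Geo.subspaceStabilizer W) ∨
      Cfsg.Geo.InUnitaryResidualClass (Cfsg.Agent.H251.GeoU.pre M) := by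
  refine ⟨800, ?_⟩
  intro F _ _ n q hF hn M hM
  rcases S5663.result (F := F) n q hF (by omega) (by
    rintro ⟨rfl, rfl⟩
    omega) (pre M) (pre_le M) (pre_proper M hM) with ⟨X, hX, hle⟩ | h
  · rcases outD_of_class hF hn hX with ⟨D, hD1, hD2⟩ | ⟨W, hW0, hW1, hW2⟩
    · refine Or.inl ⟨D, hD1, fun e he => ?_⟩
      obtain ⟨u, hu, hu2⟩ := hD2 e he
      exact ⟨u, hu, fun h => hu2 ((h.trans (card_dvd_pre M)).trans (Subgroup.card_dvd_of_le hle))⟩
    · exact Or.inr (Or.inl ⟨W, hW0, hW1, hle.trans hW2⟩)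
  · exact Or.inr (Or.inr h)

end Cfsg.Agent.H89.BSU
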